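import Cfsg.Prelude.Def_RootSubgroups
import Cfsg.Agent.Invol.TwoPart
import Cfsg.Agent.Subnormal.BaerSuzuki

set_option autoImplicit false

/-!
Basic facts about sets of root involutions: the graph of odd products and its components.
-/

namespace CfsgLib.RootInvol

variable {G : Type*} [Group G] {D : Set G}

/-- If `u`, `v` commute, `(u x)⁴ = (v x)⁴ = 1` and `u v x` has odd order, then `x = u v`. -/
theorem eq_mul_of_four_four_odd {u v x : G} (hu : u * u = 1) (hv : v * v = 1) (hx : x * x = 1)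
    (huv : Commute u v) (hux : (u * x) ^ 4 = 1) (hvx : (v * x) ^ 4 = 1)
    (hodd : Odd (orderOf (u * v * x))) : x = u * v := by
  have hui : u⁻¹ = u := inv_eq_of_mul_eq_one_right hu
  have hvi : v⁻¹ = v := inv_eq_of_mul_eq_one_right hv
  have hxi : x⁻¹ = x := inv_eq_of_mul_eq_one_right hx
  have key : ∀ w : G, w⁻¹ = w → (w * x) ^ 4 = 1 → Commute w (x * w * x) := by
    intro w hwi h
    have h1 : (w * (x * w * x)) * (w * (x * w * x)) = 1 := by rw [← h]; simp [pow_succ, mul_assoc]
    have h2 := inv_eq_of_mul_eq_one_right h1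
    simp only [mul_inv_rev, hwi, hxi] at h2
    show w * (x * w * x) = x * w * x * w
    rw [← h2]; simp [mul_assoc]
  have cu := key u hui hux
  have cv := key v hvi hvx
  have cxx : Commute (x * u * x) (x * v * x) := by
    show x * u * x * (x * v * x) = x * v * x * (x * u * x)
    calc x * u * x * (x * v * x) = x * (u * (x * x) * v) * x := by simp [mul_assoc]
      _ = x * (v * (x * x) * u) * x := by rw [hx, mul_one, mul_one, huv.eq]
      _ = _ := by simp [mul_assoc]
  set g := u * v * x with hg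
  set p := u * (x * v * x) with hp
  set q := v * (x * u * x) with hq
  have hpq : Commute p q :=
    Commute.mul_left (huv.mul_right cu) (cv.symm.mul_right cxx.symm)
  have hgp : g * p = q * g := by
    calc g * p = u * v * (x * u * x) * (v * x) := by simp only [hg, hp, mul_assoc]
      _ = v * (u * (x * u * x)) * (v * x) := by rw [huv.eq]; simp only [mul_assoc]
      _ = v * ((x * u * x) * u) * (v * x) := by rw [cu.eq]
      _ = q * g := by simp only [hg, hq, mul_assoc]
  have hgq : g * q = p * g := by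
    calc g * q = u * (v * (x * v * x)) * (u * x) := by simp only [hg, hq, mul_assoc]
      _ = u * (x * v * x * v) * (u * x) := by rw [cv.eq]
      _ = u * (x * v * x) * (v * u) * x := by simp only [mul_assoc]
      _ = p * g := by rw [← huv.eq]; simp only [hg, hp, mul_assoc]
  have hsq : g * g = p * q := by
    calc g * g = u * v * ((x * u * x) * (x * v * x)) := by
          simp only [hg, mul_assoc]; simp [← mul_assoc x x, hx]
      _ = u * (v * (x * v * x)) * (x * u * x) := by rw [cxx.eq]; simp only [mul_assoc]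
      _ = u * (x * v * x * v) * (x * u * x) := by rw [cv.eq]
      _ = p * q := by simp only [hp, hq, mul_assoc]
  obtain ⟨k, hk⟩ := hodd
  have hgk : (g * g) ^ (k + 1) = g := by
    rw [← pow_two, ← pow_mul, show 2 * (k + 1) = (2 * k + 1) + 1 by ring, pow_succ, ← hk,
      pow_orderOf_eq_one, one_mul]
  have hcgp : Commute g p := by
    have h1 : Commute (g * g) p := hsq ▸ (Commute.mul_left (Commute.refl p) hpq.symm)
    exact hgk ▸ h1.pow_left (k + 1)
  have e : q = p := mul_right_cancel (b := g) (hgp.symm.trans hcgp.eq)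
  have hcup : Commute u p := e ▸ huv.mul_right cu
  have hcu' : u * (x * v * x) = x * v * x * u := by
    have h3 : u * (u * (x * v * x)) = u * (x * v * x) * u := hcup.eq
    rw [← mul_assoc u u, hu, one_mul] at h3
    calc u * (x * v * x) = u * (x * v * x) * (u * u) := by rw [hu, mul_one]
      _ = x * v * x * u := by rw [← mul_assoc, ← h3]
  have hxvx : x * v * x * (x * v * x) = 1 := by
    calc x * v * x * (x * v * x) = x * v * (x * x) * v * x := by simp only [mul_assoc]
      _ = 1 := by rw [hx, mul_one, mul_assoc x v v, hv, mul_one, hx]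
  have hg2 : g ^ 2 = 1 := by
    rw [pow_two, hsq, e, hp]
    calc u * (x * v * x) * (u * (x * v * x)) = u * ((x * v * x) * u) * (x * v * x) := by simp only [mul_assoc]
      _ = u * (u * (x * v * x)) * (x * v * x) := by rw [hcu']
      _ = (u * u) * ((x * v * x) * (x * v * x)) := by simp only [mul_assoc]
      _ = 1 := by rw [hu, hxvx, one_mul]
  have hg1 : g = 1 := by
    refine orderOf_eq_one_iff.1 ?_
    rcases (Nat.dvd_prime Nat.prime_two).1 (orderOf_dvd_of_pow_eq_one hg2) with h | h
    · exact h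
    · omega
  rw [hg, mul_eq_one_iff_eq_inv, hxi] at hg1
  exact hg1.symm

variable (hD : Cfsg.IsRootInvolutionSet D)
include hD

theorem mul_self {d : G} (hd : d ∈ D) : d * d = 1 := by
  rw [← pow_two, ← hD.orderOf_eq d hd]; exact pow_orderOf_eq_one d

theorem inv_eq {d : G} (hd : d ∈ D) : d⁻¹ = d := inv_eq_of_mul_eq_one_right (mul_self hD hd)

theorem ne_one {d : G} (hd : d ∈ D) : d ≠ 1 := fun e => by
  have := hD.orderOf_eq d hd
  rw [e, orderOf_one] at this
  omega

theorem orderOf_swap {a b : G} (ha : a ∈ D) (hb : b ∈ D) : orderOf (b * a) = orderOf (a * b) := by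
  rw [← orderOf_inv, mul_inv_rev, inv_eq hD ha, inv_eq hD hb]

theorem oddAdj_symm {a b : G} (h : Cfsg.OddAdj D a b) : Cfsg.OddAdj D b a :=
  ⟨h.2.1, h.1, h.2.2.1.symm, by rw [orderOf_swap hD h.1 h.2.1]; exact h.2.2.2⟩

theorem oddAdj_conj {a b : G} (h : Cfsg.OddAdj D a b) (g : G) :
    Cfsg.OddAdj D (g * a * g⁻¹) (g * b * g⁻¹) := by
  refine ⟨hD.conj_mem a h.1 g, hD.conj_mem b h.2.1 g, fun e => h.2.2.1 ?_, ?_⟩
  · exact mul_left_cancel (mul_right_cancel e)
  · rw [show g * a * g⁻¹ * (g * b * g⁻¹) = g * (a * b) * g⁻¹ by group, CfsgLib.Invol.orderOf_conj]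
    exact h.2.2.2

theorem reach_symm {a b : G} (h : Relation.ReflTransGen (Cfsg.OddAdj D) a b) :
    Relation.ReflTransGen (Cfsg.OddAdj D) b a := by
  induction h with
  | refl => exact Relation.ReflTransGen.refl
  | tail _ h2 ih => exact Relation.ReflTransGen.head (oddAdj_symm hD h2) ih

theorem pow_four {a b : G} (ha : a ∈ D) (hb : b ∈ D) (h : ¬ Cfsg.OddAdj D a b) : (a * b) ^ 4 = 1 := by
  by_cases hab : a = b
  · rw [hab, mul_self hD hb, one_pow]
  rcases hD.pair a ha b hb with h1 | h1 | h1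
  · rw [Commute.mul_pow h1, show a ^ 4 = (a * a) ^ 2 by simp [pow_succ, mul_assoc],
      show b ^ 4 = (b * b) ^ 2 by simp [pow_succ, mul_assoc], mul_self hD ha, mul_self hD hb]
    simp
  · exact absurd ⟨ha, hb, hab, h1⟩ h
  · rw [← h1.1]; exact pow_orderOf_eq_one _

/-- An odd partner of a product of commuting members is an odd partner of one of the factors. -/
theorem oddAdj_split {u v w x : G} (hu : u ∈ D) (hv : v ∈ D) (huv : u * v = v * u) (e : w = u * v)
    (h : Cfsg.OddAdj D w x) : Cfsg.OddAdj D u x ∨ Cfsg.OddAdj D v x := by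
  obtain ⟨-, hx, hne, hodd⟩ := h
  subst e
  by_contra hno
  push Not at hno
  exact hne (eq_mul_of_four_four_odd (mul_self hD hu) (mul_self hD hv) (mul_self hD hx) huv
    (pow_four hD hu hx hno.1) (pow_four hD hv hx hno.2) hodd).symm

theorem four_spec {a d : G} (ha : a ∈ D) (hd : d ∈ D) (h4 : orderOf (a * d) = 4) (hsq : (a * d) ^ 2 ∈ D) :
    d * a * d ∈ D ∧ a * (d * a * d) = (a * d) ^ 2 ∧ a * (d * a * d) = d * a * d * a ∧
      (a * d) ^ 2 * d = d * (a * d) ^ 2 := by
  have h1 : a * (d * a * d) = (a * d) ^ 2 := by simp [pow_two, mul_assoc]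
  have h2 : ((a * d) ^ 2)⁻¹ = (a * d) ^ 2 := inv_eq hD hsq
  have h3 : d * a * d * a = ((a * d) ^ 2)⁻¹ := by
    rw [← h1]; simp [inv_eq hD ha, inv_eq hD hd, mul_assoc]
  refine ⟨?_, h1, by rw [h1, h3, h2], ?_⟩
  · have := hD.conj_mem a ha d
    rwa [inv_eq hD hd] at this
  · calc (a * d) ^ 2 * d = a * d * a * (d * d) := by simp [pow_two, mul_assoc]
      _ = (d * d) * (a * d * a) := by rw [mul_self hD hd, mul_one, one_mul]
      _ = d * ((a * d) ^ 2)⁻¹ := by simp [pow_two, inv_eq hD ha, inv_eq hD hd, mul_assoc]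
      _ = d * (a * d) ^ 2 := by rw [h2]

/-- A member with an odd partner has all its conjugates in its component. -/
theorem conj_reach {a x : G} (hax : Cfsg.OddAdj D a x) (g : G) :
    Relation.ReflTransGen (Cfsg.OddAdj D) (g * a * g⁻¹) a := by
  have hg : g ∈ Subgroup.closure D := hD.generates ▸ Subgroup.mem_top g
  induction hg using Subgroup.closure_induction generalizing a x with
  | one => simpa using Relation.ReflTransGen.refl
  | mul g h _ _ ihg ihh =>
    have := (ihg (oddAdj_conj hD hax h)).trans (ihh hax)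
    rwa [show g * h * a * (g * h)⁻¹ = g * (h * a * h⁻¹) * g⁻¹ by group]
  | inv g _ ihg =>
    have := reach_symm hD (ihg (oddAdj_conj hD hax g⁻¹))
    rwa [show g * (g⁻¹ * a * g⁻¹⁻¹) * g⁻¹ = a by group] at this
  | mem d hd =>
    rw [inv_eq hD hd]
    obtain ⟨ha, hx, -, -⟩ := id hax
    rcases hD.pair a ha d hd with h | h | ⟨h4, hsq⟩
    · rw [mul_assoc, h, ← mul_assoc, mul_self hD hd, one_mul]
    · by_cases had : a = d
      · subst had; rw [mul_self hD hd, one_mul]
      have h1 : Cfsg.OddAdj D a d := ⟨ha, hd, had, h⟩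
      have h2 := oddAdj_conj hD h1 d
      rw [inv_eq hD hd, mul_self hD hd, one_mul] at h2
      exact (Relation.ReflTransGen.single h2).tail (oddAdj_symm hD h1)
    · obtain ⟨ha', h1, h2, h3⟩ := four_spec hD ha hd h4 hsq
      have e : a = (a * d) ^ 2 * (d * a * d) := by
        calc a = a * (d * d) := by rw [mul_self hD hd, mul_one]
          _ = a * d * (a * a) * d := by rw [mul_self hD ha, mul_one, mul_assoc]
          _ = a * d * a * (d * d) * (a * d) := by rw [mul_self hD hd, mul_one]; simp only [mul_assoc]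
          _ = (a * d) ^ 2 * (d * a * d) := by simp only [pow_two, mul_assoc]
      have hc : (a * d) ^ 2 * (d * a * d) = d * a * d * (a * d) ^ 2 := by
        rw [← h1]; nth_rewrite 1 [h2]; simp only [mul_assoc]
      rcases oddAdj_split hD hsq ha' hc e hax with h5 | h5
      · have h6 := oddAdj_conj hD hax d
        have h7 := oddAdj_conj hD h5 d
        rw [inv_eq hD hd] at h6 h7
        rw [← h3, mul_assoc, mul_self hD hd, mul_one] at h7
        exact (((Relation.ReflTransGen.single h6).tail (oddAdj_symm hD h7)).tail h5).tail (oddAdj_symm hD hax)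
      · exact (Relation.ReflTransGen.single h5).tail (oddAdj_symm hD hax)

/-- Isolated members lie in `O₂(G)`. -/
theorem isolated_mem_pCore [Finite G] {w : G} (hw : Cfsg.IsIsolatedElem (Cfsg.OddAdj D) D w) :
    w ∈ Cfsg.pCore 2 G := by
  haveI : Fact (Nat.Prime 2) := ⟨Nat.prime_two⟩
  refine CfsgLib.Subnormal.mem_pCore_of_forall_isPGroup fun g => ?_
  have hg := hD.conj_mem w hw.1 g
  exact CfsgLib.Invol.isPGroup_closure_pair (mul_self hD hw.1) (mul_self hD hg) (k := 2)
    (orderOf_dvd_of_pow_eq_one (pow_four hD hw.1 hg (hw.2 _).1))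

/-- Members in `O₂(G)` are isolated. -/
theorem isolated_of_mem_pCore [Finite G] {w : G} (hw : w ∈ D) (hQ : w ∈ Cfsg.pCore 2 G) :
    Cfsg.IsIsolatedElem (Cfsg.OddAdj D) D w := by
  haveI : Fact (Nat.Prime 2) := ⟨Nat.prime_two⟩
  have key : ∀ b, ¬ Cfsg.OddAdj D w b := by
    rintro b ⟨-, hb, hne, hodd⟩
    have hm : (w * b) ^ 2 ∈ Cfsg.pCore 2 G := by
      rw [show (w * b) ^ 2 = w * (b * w * b⁻¹) by rw [inv_eq hD hb]; simp [pow_two, mul_assoc]]
      exact mul_mem hQ ((CfsgLib.Subnormal.normal_pCore 2).conj_mem w hQ b)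
    obtain ⟨j, hj⟩ := CfsgLib.Subnormal.isPGroup_pCore 2 ⟨_, hm⟩
    have h1 : (w * b) ^ 2 ^ (j + 1) = 1 := by
      rw [pow_succ', pow_mul]
      exact congrArg Subtype.val hj
    obtain ⟨i, -, hi⟩ := (Nat.dvd_prime_pow Nat.prime_two).1 (orderOf_dvd_of_pow_eq_one h1)
    rcases Nat.eq_zero_or_pos i with rfl | hi0
    · rw [pow_zero, orderOf_eq_one_iff, mul_eq_one_iff_eq_inv, inv_eq hD hb] at hi
      exact hne hi
    · exact Nat.not_even_iff_odd.2 (hi ▸ hodd) (Nat.even_pow.2 ⟨even_two, hi0.ne'⟩)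
  exact ⟨hw, fun b => ⟨key b, fun h => key b (oddAdj_symm hD h)⟩⟩

end CfsgLib.RootInvol
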