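import Cfsg.Agent.RootInvol.Basic

set_option autoImplicit false

/-!
Product partners of root involutions: the commutator iteration and the order three lemma.
-/

namespace CfsgLib.RootInvol

variable {G : Type*} [Group G] {D : Set G}

theorem eq_one_of_sq_of_odd {v : G} (h2 : v * v = 1) {n : ℕ} (hn : Odd n) (h : v ^ n = 1) : v = 1 := by
  obtain ⟨k, rfl⟩ := hn
  rwa [pow_succ, pow_mul, pow_two, h2, one_pow, one_mul] at h

variable (hD : Cfsg.IsRootInvolutionSet D)
include hD

theorem not_commute_of_odd {a b : G} (h : Cfsg.OddAdj D a b) : a * b ≠ b * a := fun e => by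
  obtain ⟨ha, hb, hne, hodd⟩ := h
  have h2 : a * b * (a * b) = 1 := by
    nth_rewrite 2 [e]
    rw [mul_assoc a b, ← mul_assoc b b, mul_self hD hb, one_mul, mul_self hD ha]
  have h1 := eq_one_of_sq_of_odd h2 hodd (pow_orderOf_eq_one _)
  rw [mul_eq_one_iff_eq_inv, inv_eq hD hb] at h1
  exact hne h1

theorem ne_four_of_odd {a b : G} (h : Cfsg.OddAdj D a b) : orderOf (a * b) ≠ 4 := fun e => by
  have := h.2.2.2
  rw [e] at this
  exact absurd this (by decide)

theorem four_of {a b : G} (ha : a ∈ D) (hb : b ∈ D) (h : ¬ Cfsg.OddAdj D a b) (hc : a * b ≠ b * a) :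
    orderOf (a * b) = 4 ∧ (a * b) ^ 2 ∈ D := by
  rcases hD.pair a ha b hb with h1 | h1 | h1
  · exact absurd h1 hc
  · exact absurd ⟨ha, hb, fun e => hc (by rw [e]), h1⟩ h
  · exact h1

/-- No member commutes with both ends of an odd edge and has product in `D` with one end. -/
theorem no_odd {u v w : G} (huw : Cfsg.OddAdj D u w) (hv : v ∈ D) (huv : u * v = v * u) (huvD : u * v ∈ D)
    (hvw : v * w = w * v) : False := by
  have hvnw : ¬ Cfsg.OddAdj D v w := fun h => not_commute_of_odd hD h hvw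
  have e : u = v * (u * v) := by rw [huv, ← mul_assoc, mul_self hD hv, one_mul]
  have c : v * (u * v) = u * v * v := by rw [← mul_assoc, ← huv]
  obtain ⟨-, hw, -, ho⟩ := id huw
  have h' := (oddAdj_split hD hv huvD c e huw).resolve_left hvnw
  have hcm : Commute (u * w) v := Commute.mul_left huv hvw.symm
  have he : u * v * w = u * w * v := by rw [mul_assoc, hvw, ← mul_assoc]
  have h1 : (u * w * v) ^ (orderOf (u * w) * orderOf (u * v * w)) = 1 := by
    rw [← he, mul_comm, pow_mul, pow_orderOf_eq_one, one_pow]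
  rw [hcm.mul_pow, pow_mul, pow_orderOf_eq_one, one_pow, one_mul] at h1
  exact ne_one hD hv (eq_one_of_sq_of_odd (mul_self hD hv) (ho.mul h'.2.2.2) h1)

/-- Basic facts about a pair with product of order four. -/
theorem four_facts {c x : G} (hc : c ∈ D) (hx : x ∈ D) (h4 : orderOf (c * x) = 4) (hsq : (c * x) ^ 2 ∈ D) :
    Commute c ((c * x) ^ 2) ∧ Commute x ((c * x) ^ 2) ∧ x * c * x = c * (c * x) ^ 2 ∧
      c * x * c = (c * x) ^ 2 * x ∧ x * c * x ∈ D ∧ c * x * c ∈ D := by
  obtain ⟨h0, h1, h2, h3⟩ := four_spec hD hc hx h4 hsq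
  have e1 : x * c * x = c * (c * x) ^ 2 := by rw [← h1, ← mul_assoc c c, mul_self hD hc, one_mul]
  refine ⟨?_, h3.symm, e1, ?_, h0, ?_⟩
  · show c * (c * x) ^ 2 = (c * x) ^ 2 * c
    rw [← e1, ← h1, h2, mul_assoc (x * c * x) c c, mul_self hD hc, mul_one]
  · calc c * x * c = c * x * c * (x * x) := by rw [mul_self hD hx, mul_one]
      _ = _ := by simp only [pow_two, mul_assoc]
  · have := hD.conj_mem x hx c
    rwa [inv_eq hD hc] at this

/-- The states of the iteration. -/
def Good (D : Set G) (a x c : G) : Prop := c ∈ D ∧ Commute a c ∧ a * c ∈ D ∧ ¬ Cfsg.OddAdj D c x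

theorem good_step {a x c : G} (hax : Cfsg.OddAdj D a x) (hg : Good D a x c) :
    (c * x) ^ 2 ∈ D ∧ orderOf (c * x) = 4 ∧ orderOf (a * (c * x) ^ 2) = 4 ∧
      Commute c ((c * x) ^ 2) ∧ Commute x ((c * x) ^ 2) ∧ x * c * x = c * (c * x) ^ 2 ∧
      Commute ((a * (c * x) ^ 2) ^ 2) ((c * x) ^ 2) ∧ Commute c ((a * (c * x) ^ 2) ^ 2) ∧
      (a * (c * x) ^ 2) ^ 2 = (c * x) ^ 2 * (a * (c * x) ^ 2 * a) ∧
      a * (c * x) ^ 2 * a = (c * x) ^ 2 * (a * (c * x) ^ 2) ^ 2 ∧
      Good D a x ((a * (c * x) ^ 2) ^ 2) := by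
  obtain ⟨hc, hac, hacD, hcx⟩ := hg
  obtain ⟨ha, hx, -, -⟩ := id hax
  have hnc : c * x ≠ x * c := fun e => no_odd hD hax hc hac.eq hacD e
  obtain ⟨h4, heD⟩ := four_of hD hc hx hcx hnc
  obtain ⟨k1, k2, k3, k4, k5, k6⟩ := four_facts hD hc hx h4 heD
  set e := (c * x) ^ 2 with he
  have hnae : a * e ≠ e * a := fun h =>
    no_odd hD (oddAdj_symm hD hax) heD k2.eq (by rw [k2.eq, ← k4]; exact k6) h.symm
  have hae : ¬ Cfsg.OddAdj D a e := fun h => no_odd hD h hc hac.eq hacD k1.eq
  obtain ⟨g4, hΦD⟩ := four_of hD ha heD hae hnae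
  obtain ⟨m1, m2, m3, m4, m5, m6⟩ := four_facts hD ha heD g4 hΦD
  set f := (a * e) ^ 2 with hf
  have haea : a * e * a = e * f := by rw [m4]; exact m2.symm.eq
  have hfe : f = e * (a * e * a) := by rw [haea, ← mul_assoc, mul_self hD heD, one_mul]
  refine ⟨heD, h4, g4, k1, k2, k3, m2.symm, ?_, hfe, haea, hΦD, m1, by rw [← m3]; exact m5,
    fun h => no_odd hD h heD m2.symm.eq (by rw [← m4]; exact m6) k2.symm.eq⟩
  rw [hfe]
  exact k1.mul_right ((hac.symm.mul_right k1).mul_right hac.symm)

/-- The iteration step. -/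
def next (a x c : G) : G := (a * (c * x) ^ 2) ^ 2

/-- The iteration. -/
def orbit (a x b : G) : ℕ → G
  | 0 => b
  | n + 1 => next a x (orbit a x b n)

theorem orbit_good {a x b : G} (hax : Cfsg.OddAdj D a x) (hb : Good D a x b) :
    ∀ n, Good D a x (orbit a x b n)
  | 0 => hb
  | n + 1 => (good_step hD hax (orbit_good hax hb n)).2.2.2.2.2.2.2.2.2.2

/-- All terms of the iteration commute. -/
theorem orbit_commute {a x b : G} (hax : Cfsg.OddAdj D a x) (hb : Good D a x b) :
    ∀ d i, Commute (orbit a x b i) (orbit a x b (i + d)) ∧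
      Commute ((orbit a x b i * x) ^ 2) (orbit a x b (i + d)) ∧
      Commute (orbit a x b i) ((orbit a x b (i + d) * x) ^ 2) ∧
      Commute ((orbit a x b i * x) ^ 2) ((orbit a x b (i + d) * x) ^ 2) := by
  set s := orbit a x b with hs
  set e := fun i => (s i * x) ^ 2 with he
  have hx : x ∈ D := hax.2.1
  have ha : a ∈ D := hax.1
  have hst := fun i => good_step hD hax (orbit_good hD hax hb i)
  -- conjugation by `x`
  have hconj : ∀ p q : G, Commute p q → Commute (x * p * x) (x * q * x) := fun p q h => by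
    show x * p * x * (x * q * x) = x * q * x * (x * p * x)
    calc x * p * x * (x * q * x) = x * p * (x * x) * q * x := by simp only [mul_assoc]
      _ = x * (p * q) * x := by rw [mul_self hD hx, mul_one, mul_assoc x p q]
      _ = x * (q * p) * x := by rw [h.eq]
      _ = x * q * (x * x) * p * x := by rw [mul_self hD hx, mul_one, mul_assoc x q p]
      _ = _ := by simp only [mul_assoc]
  have hconja : ∀ p q : G, Commute p q → Commute (a * p * a) (a * q * a) := fun p q h => by
    show a * p * a * (a * q * a) = a * q * a * (a * p * a)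
    calc a * p * a * (a * q * a) = a * p * (a * a) * q * a := by simp only [mul_assoc]
      _ = a * (p * q) * a := by rw [mul_self hD ha, mul_one, mul_assoc a p q]
      _ = a * (q * p) * a := by rw [h.eq]
      _ = a * q * (a * a) * p * a := by rw [mul_self hD ha, mul_one, mul_assoc a q p]
      _ = _ := by simp only [mul_assoc]
  have hxs : ∀ i, x * s i * x = s i * e i := fun i => (hst i).2.2.2.2.2.1
  have hxe : ∀ i, x * e i * x = e i := fun i => by
    rw [((hst i).2.2.2.2.1).eq, mul_assoc, mul_self hD hx, mul_one]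
  have hee : ∀ i, e i * e i = 1 := fun i => mul_self hD (hst i).1
  have hss : ∀ i, s i * s i = 1 := fun i => mul_self hD (orbit_good hD hax hb i).1
  -- the last two commutations follow from the first two
  have hfin : ∀ i j, Commute (s i) (s j) → Commute (e i) (s j) → Commute (s i) (e j) ∧ Commute (e i) (e j) := by
    intro i j h1 h2
    have hxx : x * (s i * e i) * x = s i := by
      rw [← hxs i, show x * (x * s i * x) * x = (x * x) * s i * (x * x) by simp only [mul_assoc],
        mul_self hD hx, one_mul, mul_one]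
    have h3 := hconj _ _ (h1.mul_left h2)
    rw [hxx, hxs j] at h3
    have h4 := hconj _ _ h2
    rw [hxe i, hxs j] at h4
    refine ⟨?_, ?_⟩
    · have := h1.mul_right h3
      rwa [← mul_assoc, hss j, one_mul] at this
    · have := h2.mul_right h4
      rwa [← mul_assoc, hss j, one_mul] at this
  intro d
  induction d using Nat.twoStepInduction with
  | zero =>
    intro i
    exact ⟨Commute.refl _, (hst i).2.2.2.1.symm, hfin i i (Commute.refl _) (hst i).2.2.2.1.symm⟩
  | one =>
    intro i
    have h1 : Commute (s i) (s (i + 1)) := (hst i).2.2.2.2.2.2.2.1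
    have h2 : Commute (e i) (s (i + 1)) := (hst i).2.2.2.2.2.2.1.symm
    exact ⟨h1, h2, hfin i _ h1 h2⟩
  | more d ih0 ih1 =>
    intro i
    have hj := ih1 i
    have hsucc : s (i + (d + 2)) = e (i + (d + 1)) * (a * e (i + (d + 1)) * a) :=
      (hst (i + (d + 1))).2.2.2.2.2.2.2.2.1
    have hai : Commute (s i) a := (orbit_good hD hax hb i).2.1.symm
    have h1 : Commute (s i) (s (i + (d + 2))) := by
      rw [hsucc]
      exact hj.2.2.1.mul_right ((hai.mul_right hj.2.2.1).mul_right hai)
    have h2 : Commute (e i) (s (i + (d + 2))) := by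
      rw [hsucc]
      refine hj.2.2.2.mul_right ?_
      have h5 : Commute (e i * s (i + 1)) (e (i + (d + 1))) := by
        refine hj.2.2.2.mul_left ?_
        have := (ih0 (i + 1)).2.2.1
        rwa [show i + 1 + d = i + (d + 1) by ring] at this
      have h6 := hconja _ _ h5
      have e6 : a * (e i * s (i + 1)) * a = e i := by
        rw [show e i * s (i + 1) = a * e i * a from (hst i).2.2.2.2.2.2.2.2.2.1.symm,
          show a * (a * e i * a) * a = (a * a) * e i * (a * a) by simp only [mul_assoc],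
          mul_self hD ha, one_mul, mul_one]
      rwa [e6] at h6
    exact ⟨h1, h2, hfin i _ h1 h2⟩

theorem orbit_cancel {a x b : G} (hax : Cfsg.OddAdj D a x) (hb : Good D a x b) {i j : ℕ}
    (h : orbit a x b (i + 1) = orbit a x b (j + 1)) : orbit a x b i = orbit a x b j := by
  wlog hij : i ≤ j generalizing i j
  · exact (this h.symm (le_of_not_ge hij)).symm
  obtain ⟨d, rfl⟩ := Nat.exists_eq_add_of_le hij
  obtain ⟨ha, hx, -, hodd⟩ := id hax
  obtain ⟨cc, ec, ce, ee⟩ := orbit_commute hD hax hb d i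
  obtain ⟨hc, hac, hacD, hcx⟩ := orbit_good hD hax hb i
  obtain ⟨hc', hac', hacD', hcx'⟩ := orbit_good hD hax hb (i + d)
  have s1 := good_step hD hax (orbit_good hD hax hb i)
  have s2 := good_step hD hax (orbit_good hD hax hb (i + d))
  set c := orbit a x b i with hcdef
  set c' := orbit a x b (i + d) with hcdef'
  set e := (c * x) ^ 2 with he
  set e' := (c' * x) ^ 2 with he'
  have hΦ : e * (a * e * a) = e' * (a * e' * a) := by
    rw [← s1.2.2.2.2.2.2.2.2.1, ← s2.2.2.2.2.2.2.2.2.1]; exact h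
  have hx2 := mul_self hD hx
  have ha2 := mul_self hD ha
  have hdd : (e * e') * (e * e') = 1 := by
    rw [mul_assoc, ← mul_assoc e', ← ee.eq, mul_assoc e e', mul_self hD s2.1, mul_one, mul_self hD s1.1]
  have had : Commute a (e * e') := by
    have h1 : a * e * a = e * e' * (a * e' * a) := by
      rw [mul_assoc e, ← hΦ, ← mul_assoc, mul_self hD s1.1, one_mul]
    have h2 : a * (e * e') * a = e * e' := by
      calc a * (e * e') * a = a * e * (a * a) * e' * a := by rw [ha2, mul_one, mul_assoc a e e']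
        _ = (a * e * a) * (a * e' * a) := by simp only [mul_assoc]
        _ = e * e' * ((a * e' * a) * (a * e' * a)) := by rw [h1, mul_assoc]
        _ = e * e' * (a * (e' * e') * a) := by
            rw [show a * e' * a * (a * e' * a) = a * e' * (a * a) * e' * a by simp only [mul_assoc], ha2, mul_one,
              mul_assoc a e' e']
        _ = e * e' := by rw [mul_self hD s2.1, mul_one, ha2, mul_one]
    show a * (e * e') = e * e' * a
    conv_rhs => rw [← h2, mul_assoc, ha2, mul_one]
  have hxd : Commute x (e * e') := s1.2.2.2.2.1.mul_right s2.2.2.2.2.1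
  have hxr : x * (c * c') * x = c * c' * (e * e') := by
    calc x * (c * c') * x = x * c * (x * x) * c' * x := by rw [hx2, mul_one, mul_assoc x c c']
      _ = (x * c * x) * (x * c' * x) := by simp only [mul_assoc]
      _ = c * (e * c') * e' := by rw [s1.2.2.2.2.2.1, s2.2.2.2.2.2.1]; simp only [mul_assoc]
      _ = c * c' * (e * e') := by rw [ec.eq]; simp only [mul_assoc]
  have har : Commute a (c * c') := hac.mul_right hac'
  have hq : ∀ k : ℕ, (a * x) ^ k * (c * c') * ((a * x) ^ k)⁻¹ = c * c' * (e * e') ^ k := by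
    intro k
    induction k with
    | zero => simp
    | succ k ih =>
      have hqd : Commute (a * x) ((e * e') ^ k) := (had.mul_left hxd).pow_right k
      calc (a * x) ^ (k + 1) * (c * c') * ((a * x) ^ (k + 1))⁻¹
          = (a * x) * ((a * x) ^ k * (c * c') * ((a * x) ^ k)⁻¹) * (a * x)⁻¹ := by rw [pow_succ', mul_inv_rev]; simp only [mul_assoc]
        _ = (a * x) * (c * c' * (e * e') ^ k) * (a * x)⁻¹ := by rw [ih]
        _ = (a * x) * (c * c') * (a * x)⁻¹ * (e * e') ^ k := by
            rw [← mul_assoc, mul_assoc _ ((e * e') ^ k), ← (hqd.inv_left).eq]; simp only [mul_assoc]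
        _ = a * (x * (c * c') * x) * a * (e * e') ^ k := by
            rw [mul_inv_rev, inv_eq hD ha, inv_eq hD hx]; simp only [mul_assoc]
        _ = c * c' * (e * e') * (e * e') ^ k := by
            rw [hxr, (har.mul_right had).eq, mul_assoc _ a a, ha2, mul_one]
        _ = _ := by rw [mul_assoc, pow_succ']
  have hd1 : e * e' = 1 := by
    refine eq_one_of_sq_of_odd hdd hodd ?_
    have := hq (orderOf (a * x))
    rw [pow_orderOf_eq_one, inv_one, mul_one, one_mul] at this
    exact (mul_eq_left.1 this.symm)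
  have hrx : Commute (c * c') x := by
    rw [hd1, mul_one] at hxr
    show c * c' * x = x * (c * c')
    conv_lhs => rw [← hxr, mul_assoc, hx2, mul_one]
  have hrr : (c * c') * (c * c') = 1 := by
    rw [mul_assoc, ← mul_assoc c', ← cc.eq, mul_assoc c c', mul_self hD hc', mul_one, mul_self hD hc]
  have hodd' : ∀ {v : G}, v ∈ D → Commute a v → a * v ∈ D → ¬ Cfsg.OddAdj D v x → Cfsg.OddAdj D (a * v) x := by
    intro v hv hav havD hvx
    exact (oddAdj_split hD hv havD (by rw [← mul_assoc, ← hav.eq])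
      (by rw [hav.eq, ← mul_assoc, mul_self hD hv, one_mul]) hax).resolve_left hvx
  have o1 := (hodd' hc hac hacD hcx).2.2.2
  have o2 := (hodd' hc' hac' hacD' hcx').2.2.2
  have hg : Commute (c * c') (a * c * x) :=
    (har.symm.mul_right ((Commute.refl c).mul_left cc.symm)).mul_right hrx
  have e2 : a * c' * x = (c * c') * (a * c * x) := by
    calc a * c' * x = a * (c * c) * c' * x := by rw [mul_self hD hc, mul_one]
      _ = a * c * ((c * c') * x) := by simp only [mul_assoc]
      _ = a * c * (x * (c * c')) := by rw [hrx.eq]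
      _ = (c * c') * (a * c * x) := by rw [hg.eq]; simp only [mul_assoc]
  have h1 : (c * c') ^ (orderOf (a * c * x) * orderOf (a * c' * x)) = 1 := by
    have h0 : (a * c' * x) ^ (orderOf (a * c * x) * orderOf (a * c' * x)) = 1 := by
      rw [mul_comm, pow_mul, pow_orderOf_eq_one, one_pow]
    rwa [e2, hg.mul_pow, ← e2, pow_mul (a * c * x), pow_orderOf_eq_one, one_pow, mul_one] at h0
  have := eq_one_of_sq_of_odd hrr (o1.mul o2) h1
  rw [mul_eq_one_iff_eq_inv, inv_eq hD hc'] at this
  exact this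

/-- If `b` is a product partner of `a` and some odd partner of `a` is not one of `b`, then `b` is the commutator
of `a` with some member. -/
theorem exists_four_sq_eq [Finite G] {a x b : G} (hax : Cfsg.OddAdj D a x) (hb : b ∈ D) (hab : a * b = b * a)
    (habD : a * b ∈ D) (hbx : ¬ Cfsg.OddAdj D b x) :
    ∃ e ∈ D, orderOf (a * e) = 4 ∧ (a * e) ^ 2 = b ∧ Commute b e := by
  have hb' : Good D a x b := ⟨hb, hab, habD, hbx⟩
  obtain ⟨i, j, hne, heq⟩ := Finite.exists_ne_map_eq_of_infinite (orbit a x b)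
  wlog hij : i < j generalizing i j
  · exact this j i hne.symm heq.symm (by omega)
  induction i generalizing j with
  | zero =>
    obtain ⟨k, rfl⟩ : ∃ k, j = k + 1 := ⟨j - 1, by omega⟩
    obtain ⟨h1, -, h3, -, -, -, h7, -⟩ := good_step hD hax (orbit_good hD hax hb' k)
    have hbe : b = (a * (orbit a x b k * x) ^ 2) ^ 2 := heq
    rw [← hbe] at h7
    exact ⟨_, h1, h3, hbe.symm, h7⟩
  | succ i ih =>
    obtain ⟨k, rfl⟩ : ∃ k, j = k + 1 := ⟨j - 1, by omega⟩
    exact ih k (by omega) (orbit_cancel hD hax hb' heq) (by omega)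

/-- Two opposite commutator relations give a product of order three. -/
theorem orderOf_eq_three {a b e x : G} (ha : a ∈ D) (hb : b ∈ D) (he : e ∈ D) (hx : x ∈ D)
    (hab : a * b = b * a) (habD : a * b ∈ D) (hbx : orderOf (b * x) = 4) (hbxe : (b * x) ^ 2 = e)
    (hea : orderOf (e * a) = 4) (heab : (e * a) ^ 2 = b) : orderOf (a * x) = 3 := by
  obtain ⟨k1, k2, k3, -⟩ := four_facts hD hb hx hbx (by rw [hbxe]; exact he)
  rw [hbxe] at k1 k2 k3
  obtain ⟨m1, m2, m3, -⟩ := four_facts hD he ha hea (by rw [heab]; exact hb)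
  rw [heab] at m1 m2 m3
  have hne : b ≠ e := by
    intro h
    subst h
    have h2 := mul_self hD hb
    rw [← hbxe, pow_two] at hb
    have h3 : (b * x) ^ 2 = 1 := by
      rw [hbxe]
      have : x * b * x = 1 := k3.trans h2
      calc b = (x * x) * b * (x * x) := by rw [mul_self hD hx, one_mul, mul_one]
        _ = x * (x * b * x) * x := by simp only [mul_assoc]
        _ = 1 := by rw [this, mul_one, mul_self hD hx]
    rw [hbxe] at h3
    exact ne_one hD he h3
  have hq : ∀ w, (a * x) * w * (a * x)⁻¹ = a * (x * w * x) * a := fun w => by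
    rw [mul_inv_rev, inv_eq hD ha, inv_eq hD hx]; simp only [mul_assoc]
  have hab' : a * b * a = b := by rw [hab, mul_assoc, mul_self hD ha, mul_one]
  have hxe : x * e * x = e := by rw [k2.eq, mul_assoc, mul_self hD hx, mul_one]
  have q1 : (a * x) * b * (a * x)⁻¹ = e := by
    rw [hq, k3]
    calc a * (b * e) * a = (a * b) * e * a := by simp only [mul_assoc]
      _ = b * (a * e * a) := by rw [hab]; simp only [mul_assoc]
      _ = e := by rw [m3, m1.eq, ← mul_assoc, mul_self hD hb, one_mul]
  have q2 : (a * x) * e * (a * x)⁻¹ = e * b := by rw [hq, hxe, m3]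
  have q3 : (a * x) * (e * b) * (a * x)⁻¹ = b := by
    rw [show (a * x) * (e * b) * (a * x)⁻¹ = ((a * x) * e * (a * x)⁻¹) * ((a * x) * b * (a * x)⁻¹) by group,
      q1, q2, m1.eq, mul_assoc, mul_self hD he, mul_one]
  have hfix : (a * x) ^ 3 * b * ((a * x) ^ 3)⁻¹ = b := by
    calc (a * x) ^ 3 * b * ((a * x) ^ 3)⁻¹
        = (a * x) * ((a * x) * ((a * x) * b * (a * x)⁻¹) * (a * x)⁻¹) * (a * x)⁻¹ := by
          simp only [pow_succ', pow_zero, mul_one, mul_inv_rev, mul_assoc]
      _ = b := by rw [q1, q2, q3]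
  have hodd : Cfsg.OddAdj D a x := by
    by_contra hn
    have h4 : (a * x) ^ 4 = 1 := pow_four hD ha hx hn
    refine hne ?_
    have : (a * x) ^ 4 * b * ((a * x) ^ 4)⁻¹ = e := by
      rw [show (a * x) ^ 4 * b * ((a * x) ^ 4)⁻¹ = (a * x) * ((a * x) ^ 3 * b * ((a * x) ^ 3)⁻¹) * (a * x)⁻¹ by
        simp only [pow_succ' (a * x) 3, mul_inv_rev, mul_assoc], hfix, q1]
    rwa [h4, inv_one, one_mul, mul_one] at this
  set h := (a * x) ^ 3 with hh
  by_contra h3
  have hh1 : h ≠ 1 := fun e1 => by
    rcases (Nat.dvd_prime Nat.prime_three).1 (orderOf_dvd_of_pow_eq_one e1) with h5 | h5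
    · rw [orderOf_eq_one_iff] at h5
      refine hne ?_
      rwa [h5, inv_one, one_mul, mul_one] at q1
    · exact h3 h5
  have hinv : a * h * a = h⁻¹ := by
    have : a * (a * x) * a⁻¹ = (a * x)⁻¹ := by
      rw [mul_inv_rev, inv_eq hD ha, inv_eq hD hx, ← mul_assoc, mul_self hD ha, one_mul]
    calc a * h * a = a * h * a⁻¹ := by rw [inv_eq hD ha]
      _ = (a * (a * x) * a⁻¹) ^ 3 := by rw [hh, conj_pow]
      _ = h⁻¹ := by rw [this, inv_pow]
  have ha' : h * a * h⁻¹ ∈ D := hD.conj_mem a ha h
  have hcb : Commute h b := by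
    show h * b = b * h
    conv_rhs => rw [← hfix]; rw [inv_mul_cancel_right]
  have eaa : a * (h * a * h⁻¹) = h⁻¹ * h⁻¹ := by
    rw [← mul_assoc, ← mul_assoc, hinv]
  have ho : Odd (orderOf (h⁻¹ * h⁻¹)) := by
    rw [← mul_inv_rev, orderOf_inv, ← pow_two, hh, ← pow_mul]
    exact hodd.2.2.2.of_dvd_nat (orderOf_pow_dvd _)
  have hne' : a ≠ h * a * h⁻¹ := by
    intro e1
    apply hh1
    refine eq_one_of_sq_of_odd ?_ (hodd.2.2.2) (by rw [hh, ← pow_mul, mul_comm, pow_mul, pow_orderOf_eq_one, one_pow])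
    rw [← e1, mul_self hD ha] at eaa
    rw [← mul_inv_rev] at eaa
    exact inv_eq_one.1 eaa.symm
  exact no_odd hD (u := a) (v := b) ⟨ha, ha', hne', by rw [eaa]; exact ho⟩ hb hab habD
    (hcb.symm.mul_right (show Commute b a from hab.symm) |>.mul_right hcb.symm.inv_right).eq

end CfsgLib.RootInvol
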