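import Cfsg.Agent.RootInvol.Partners

set_option autoImplicit false

/-!
Members with the same odd partners have the same commuting members.
-/

namespace CfsgLib.RootInvol

variable {G : Type*} [Group G] {D : Set G}

open scoped commutatorElement

/-- The odd partners of `a`. -/
def nbr (D : Set G) (a : G) : Set G := {z | Cfsg.OddAdj D a z}

variable (hD : Cfsg.IsRootInvolutionSet D)
include hD

theorem nbr_conj (g a : G) : nbr D (g * a * g⁻¹) = (fun z => g * z * g⁻¹) '' nbr D a := by
  ext z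
  constructor
  · intro hz
    refine ⟨g⁻¹ * z * g, ?_, by group⟩
    have := oddAdj_conj hD hz g⁻¹
    rw [inv_inv, show g⁻¹ * (g * a * g⁻¹) * g = a by group] at this
    exact this
  · rintro ⟨w, hw, rfl⟩
    exact oddAdj_conj hD hw g

theorem nbr_conj_eq {g a : G} (h : g * a * g⁻¹ = a) {z : G} :
    z ∈ nbr D a ↔ g * z * g⁻¹ ∈ nbr D a := by
  conv_rhs => rw [← h, nbr_conj hD]
  exact ⟨fun hz => ⟨z, hz, rfl⟩, fun ⟨w, hw, e⟩ => (mul_left_cancel (mul_right_cancel e)) ▸ hw⟩

theorem conj_of_reach [Finite G] {a b : G} (h : Relation.ReflTransGen (Cfsg.OddAdj D) a b) :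
    ∃ g : G, g * a * g⁻¹ = b := by
  induction h with
  | refl => exact ⟨1, by simp⟩
  | @tail c d _ h2 ih =>
    obtain ⟨g, hg⟩ := ih
    obtain ⟨k, hk⟩ := isConj_iff.1
      (CfsgLib.Invol.isConj_of_odd (mul_self hD h2.1) (mul_self hD h2.2.1) h2.2.2.2)
    exact ⟨k * g, by rw [← hk, ← hg]; group⟩

variable (hc : Cfsg.IsConnectedSet (Cfsg.OddAdj D) D)
include hc

theorem nbr_ncard [Finite G] {a b : G} (ha : a ∈ D) (hb : b ∈ D) : (nbr D a).ncard = (nbr D b).ncard := by
  obtain ⟨g, hg⟩ := conj_of_reach hD (hc a ha b hb)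
  rw [← hg, nbr_conj hD, Set.ncard_image_of_injective _ fun p q e => mul_left_cancel (mul_right_cancel e)]

theorem nbr_eq_of_subset [Finite G] {a b : G} (ha : a ∈ D) (hb : b ∈ D) (h : nbr D a ⊆ nbr D b) :
    nbr D a = nbr D b :=
  Set.eq_of_subset_of_ncard_le h (le_of_eq (nbr_ncard hD hc ha hb).symm) (Set.toFinite _)

/-- Members with the same odd partners commute. -/
theorem commute_of_nbr_eq [Finite G] {a b : G} (ha : a ∈ D) (hb : b ∈ D) (h : nbr D a = nbr D b) :
    a * b = b * a := by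
  haveI : Fact (Nat.Prime 2) := ⟨Nat.prime_two⟩
  by_contra hne
  set A := nbr D a with hA
  set K := {d | d ∈ D ∧ nbr D d = A} with hK
  let M := Subgroup.normalizer A
  have hKno : ∀ p ∈ K, ∀ q ∈ K, ¬ Cfsg.OddAdj D p q := fun p hp q hq e => by
    have h1 : q ∈ nbr D q := by rw [hq.2, ← hp.2]; exact e
    exact h1.2.2.1 rfl
  have hKM : ∀ d ∈ K, d ∈ M := fun d hd => Subgroup.mem_normalizer_iff_conj_image_eq.2 (by
    have := nbr_conj hD d d
    rw [mul_inv_cancel_right, hd.2] at this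
    exact this.symm)
  have hKc : ∀ g ∈ M, ∀ d ∈ K, g * d * g⁻¹ ∈ K := fun g hg d hd => by
    refine ⟨hD.conj_mem d hd.1 g, ?_⟩
    rw [nbr_conj hD, hd.2]
    exact Subgroup.mem_normalizer_iff_conj_image_eq.1 hg
  have hKP : ∀ d : M, (d : G) ∈ K → d ∈ Cfsg.pCore 2 M := by
    intro d hd
    refine CfsgLib.Subnormal.mem_pCore_of_forall_isPGroup fun g => ?_
    have hd' : ((g * d * g⁻¹ : M) : G) ∈ K := hKc g g.2 d hd
    refine CfsgLib.Invol.isPGroup_closure_pair (Subtype.ext (mul_self hD hd.1)) (Subtype.ext (mul_self hD hd'.1))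
      (k := 2) (orderOf_dvd_of_pow_eq_one (Subtype.ext ?_))
    exact pow_four hD hd.1 hd'.1 (hKno _ hd _ hd')
  set P := Cfsg.pCore 2 M with hP
  haveI : P.Normal := CfsgLib.Subnormal.normal_pCore 2
  haveI : Group.IsNilpotent P := (CfsgLib.Subnormal.isPGroup_pCore 2).isNilpotent
  -- the commutator of two non-commuting members of `K` lies in `K`
  have hbK : b ∈ K := ⟨hb, h.symm⟩
  have haK : a ∈ K := ⟨ha, rfl⟩
  obtain ⟨h4, hsq⟩ := four_of hD ha hb (hKno a haK b hbK) hne
  obtain ⟨k1, k2, k3, -, k5, -⟩ := four_facts hD ha hb h4 hsq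
  have ha'K : b * a * b ∈ K := by
    have := hKc b (hKM b hbK) a haK
    rwa [inv_eq hD hb] at this
  have hsqK : (a * b) ^ 2 ∈ K := by
    refine ⟨hsq, nbr_eq_of_subset hD hc hsq ha fun z hz => ?_⟩
    have e : (a * b) ^ 2 = a * (b * a * b) := by rw [k3, ← mul_assoc, mul_self hD ha, one_mul]
    have c : a * (b * a * b) = b * a * b * a := by
      rw [← e, k3, mul_assoc, ← k1.eq, ← mul_assoc, mul_self hD ha, one_mul]
    rcases oddAdj_split hD ha k5 c e hz with h' | h'
    · exact h'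
    · exact ha'K.2.subset h'
  -- so every member of `K` lies in every term of the derived series
  have hn : ∀ n : ℕ, ∀ d : M, (d : G) ∈ K → d ∈ (derivedSeries P n).map P.subtype := by
    intro n
    induction n with
    | zero =>
      intro d hd
      rw [derivedSeries_zero]
      exact ⟨⟨d, hKP d hd⟩, trivial, rfl⟩
    | succ n ih =>
      intro d hd
      set a₀ : M := ⟨a, hKM a haK⟩
      set b₀ : M := ⟨b, hKM b hbK⟩
      obtain ⟨pa, hpa, epa⟩ := ih a₀ haK
      obtain ⟨pb, hpb, epb⟩ := ih b₀ hbK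
      have hcm : ⁅a₀, b₀⁆ ∈ (derivedSeries P (n + 1)).map P.subtype := by
        refine ⟨⁅pa, pb⁆, ?_, by rw [map_commutatorElement, epa, epb]⟩
        rw [derivedSeries_succ]
        exact Subgroup.commutator_mem_commutator hpa hpb
      have hcv : ((⁅a₀, b₀⁆ : M) : G) = (a * b) ^ 2 := by
        show a * b * a⁻¹ * b⁻¹ = _
        rw [inv_eq hD ha, inv_eq hD hb, pow_two]; group
      obtain ⟨g, hg⟩ := conj_of_reach hD (hc _ hsq d hd.1)
      have hgM : g ∈ M := Subgroup.mem_normalizer_iff_conj_image_eq.2 (by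
        have := nbr_conj hD g ((a * b) ^ 2)
        rw [hg, hd.2, hsqK.2] at this
        exact this.symm)
      have e : d = (⟨g, hgM⟩ : M) * ⁅a₀, b₀⁆ * (⟨g, hgM⟩ : M)⁻¹ := Subtype.ext (by
        show (d : G) = g * ((⁅a₀, b₀⁆ : M) : G) * g⁻¹
        rw [hcv, hg])
      rw [e]
      exact Subgroup.Normal.conj_mem inferInstance _ hcm _
  obtain ⟨n, hbot⟩ := (Group.isSolvable_def P).1 inferInstance
  obtain ⟨p, hp, ep⟩ := hn n ⟨a, hKM a haK⟩ haK
  rw [hbot] at hp
  have : (1 : M) = ⟨a, hKM a haK⟩ := by rw [← ep, Subgroup.mem_bot.1 hp]; rfl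
  exact ne_one hD ha (congrArg Subtype.val this).symm

/-- Members with the same odd partners have the same commuting members. -/
theorem commuting_of_nbr_eq [Finite G] {d e : G} (hd : d ∈ D) (he : e ∈ D) (h : nbr D d = nbr D e) {y : G}
    (hy : y ∈ D) (hyd : y * d = d * y) : y * e = e * y := by
  by_contra hne
  have hye : ¬ Cfsg.OddAdj D e y := fun h' => by
    have : y ∈ nbr D d := h ▸ h'
    exact not_commute_of_odd hD this hyd.symm
  obtain ⟨h4, hsq⟩ := four_of hD he hy hye (Ne.symm hne)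
  obtain ⟨k1, k2, k3, k4, k5, k6⟩ := four_facts hD he hy h4 hsq
  set c := (e * y) ^ 2 with hcdef
  -- `y` fixes the odd partners of `d`, so those of `e`
  have he' : nbr D (y * e * y) = nbr D e := by
    have := nbr_conj hD y e
    rw [inv_eq hD hy] at this
    rw [this, ← h]
    have h2 := nbr_conj hD y d
    rw [hyd, mul_inv_cancel_right] at h2
    rw [inv_eq hD hy] at h2
    exact h2.symm
  have hcA : nbr D c = nbr D e := by
    refine nbr_eq_of_subset hD hc hsq he fun z hz => ?_
    have e1 : c = e * (y * e * y) := by rw [k3, ← mul_assoc, mul_self hD he, one_mul]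
    have c1 : e * (y * e * y) = y * e * y * e := by
      rw [← e1, k3, mul_assoc, ← k1.eq, ← mul_assoc, mul_self hD he, one_mul]
    rcases oddAdj_split hD he k5 c1 e1 hz with h' | h'
    · exact h'
    · exact he' ▸ h'
  have hyA : nbr D y ≠ nbr D e := fun h' => hne (commute_of_nbr_eq hD hc hy he h')
  obtain ⟨x, hcx, hyx⟩ : ∃ x, Cfsg.OddAdj D c x ∧ ¬ Cfsg.OddAdj D y x := by
    by_contra hno
    push Not at hno
    exact hyA ((nbr_eq_of_subset hD hc hsq hy hno).symm.trans hcA)
  have hcy : c * y ∈ D := k4 ▸ k6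
  obtain ⟨f, hf, hf4, hfsq, -⟩ := exists_four_sq_eq hD hcx hy k2.symm.eq hcy hyx
  -- `e f` has order three, so `f` is an odd partner of `e` and of `c`
  have hye4 : orderOf (y * e) = 4 := by rw [orderOf_swap hD he hy]; exact h4
  have hyec : (y * e) ^ 2 = c := by
    have := inv_eq hD hsq
    rw [← this, hcdef, ← inv_pow, mul_inv_rev, inv_eq hD hy, inv_eq hD he]
  have h3 : orderOf (e * f) = 3 := orderOf_eq_three hD he hsq hy hf k1.eq
    (by rw [← k3]; exact k5) hf4 hfsq hye4 hyec
  have hef : Cfsg.OddAdj D e f := ⟨he, hf, fun e' => by rw [e', mul_self hD hf, orderOf_one] at h3; omega,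
    by rw [h3]; decide⟩
  have hcf : f ∈ nbr D c := hcA.symm ▸ hef
  exact ne_four_of_odd hD hcf hf4

end CfsgLib.RootInvol

namespace CfsgLib.RootInvol

variable {G : Type*} [Group G] {D : Set G}

/-- For members with the same commuting members, the odd partners agree. -/
theorem nbr_subset_of_commuting_eq (hD : Cfsg.IsRootInvolutionSet D) {d e : G} (hd : d ∈ D) (he : e ∈ D)
    (h : Cfsg.commutingMembers D d = Cfsg.commutingMembers D e) : nbr D d ⊆ nbr D e := by
  intro x hx
  obtain ⟨-, hxD, -, hodd⟩ := id hx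
  by_contra hn
  have hxe : e * x ≠ x * e := fun h' => by
    have : x ∈ Cfsg.commutingMembers D e := ⟨hxD, h'.symm⟩
    rw [← h] at this
    exact not_commute_of_odd hD hx this.2.symm
  obtain ⟨h4, hsq⟩ := four_of hD he hxD hn hxe
  obtain ⟨k1, k2, k3, k4, k5, k6⟩ := four_facts hD he hxD h4 hsq
  have h1 : x * e * x ∈ Cfsg.commutingMembers D d := by
    rw [h]; exact ⟨k5, by rw [k3]; exact ((Commute.refl e).mul_left k1.symm).eq⟩
  have hd' : x * d * x ∈ D := by
    have := hD.conj_mem d hd x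
    rwa [inv_eq hD hxD] at this
  have hcx : ∀ p q : G, p * q = q * p → x * p * x * (x * q * x) = x * q * x * (x * p * x) := fun p q hpq => by
    calc x * p * x * (x * q * x) = x * p * (x * x) * q * x := by simp only [mul_assoc]
      _ = x * (p * q) * x := by rw [mul_self hD hxD, mul_one, mul_assoc x p q]
      _ = x * (q * p) * x := by rw [hpq]
      _ = x * q * (x * x) * p * x := by rw [mul_self hD hxD, mul_one, mul_assoc x q p]
      _ = _ := by simp only [mul_assoc]
  have h2 : x * d * x ∈ Cfsg.commutingMembers D e := by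
    refine ⟨hd', ?_⟩
    have := hcx _ _ h1.2
    rwa [show x * (x * e * x) * x = (x * x) * e * (x * x) by simp only [mul_assoc], mul_self hD hxD, one_mul,
      mul_one, eq_comm] at this
  rw [← h] at h2
  have h4' : (d * x) ^ 4 = 1 := by
    calc (d * x) ^ 4 = (d * (x * d * x)) * (d * (x * d * x)) := by simp [pow_succ, mul_assoc]
      _ = d * ((x * d * x) * d) * (x * d * x) := by simp only [mul_assoc]
      _ = d * (d * (x * d * x)) * (x * d * x) := by rw [h2.2]
      _ = (d * d) * ((x * d * x) * (x * d * x)) := by simp only [mul_assoc]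
      _ = 1 := by rw [mul_self hD hd, mul_self hD hd', one_mul]
  have h5 : (d * x) = 1 := by
    refine orderOf_eq_one_iff.1 ?_
    obtain ⟨i, hi, e'⟩ := (Nat.dvd_prime_pow Nat.prime_two).1
      (show orderOf (d * x) ∣ 2 ^ 2 from orderOf_dvd_of_pow_eq_one h4')
    rcases Nat.eq_zero_or_pos i with rfl | hi0
    · simpa using e'
    · exact absurd (Nat.even_pow.2 ⟨even_two, hi0.ne'⟩) (Nat.not_even_iff_odd.2 (e' ▸ hodd))
  exact not_commute_of_odd hD hx (by rw [mul_eq_one_iff_eq_inv, inv_eq hD hxD] at h5; rw [h5])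

theorem sameClass_iff [Finite G] (hD : Cfsg.IsRootInvolutionSet D)
    (hc : Cfsg.IsConnectedSet (Cfsg.OddAdj D) D) {d e : G} (hd : d ∈ D) (he : e ∈ D) :
    Cfsg.commutingMembers D d = Cfsg.commutingMembers D e ↔ nbr D d = nbr D e := by
  constructor
  · exact fun h => Set.Subset.antisymm (nbr_subset_of_commuting_eq hD hd he h) (nbr_subset_of_commuting_eq hD he hd h.symm)
  · intro h
    ext y
    exact ⟨fun hy => ⟨hy.1, commuting_of_nbr_eq hD hc hd he h hy.1 hy.2⟩,
      fun hy => ⟨hy.1, commuting_of_nbr_eq hD hc he hd h.symm hy.1 hy.2⟩⟩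

theorem commuting_union_four (hD : Cfsg.IsRootInvolutionSet D) {d : G} (hd : d ∈ D) :
    Cfsg.commutingMembers D d ∪ Cfsg.fourPartners D d = D \ nbr D d := by
  ext y
  constructor
  · rintro (⟨hy, h⟩ | ⟨hy, h⟩)
    · exact ⟨hy, fun h' => not_commute_of_odd hD h' h.symm⟩
    · exact ⟨hy, fun h' => ne_four_of_odd hD h' h⟩
  · rintro ⟨hy, h⟩
    by_cases hc : d * y = y * d
    · exact Or.inl ⟨hy, hc.symm⟩
    · exact Or.inr ⟨hy, (four_of hD hd hy h hc).1⟩

end CfsgLib.RootInvol
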