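import Cfsg.Agent.RootInvol.SameClass
import Cfsg.Prelude.Def_QuasithinSetup

set_option autoImplicit false

/-!
Normal subgroups of a group generated by a connected set of root involutions with a product pair.
-/

namespace CfsgLib.RootInvol

variable {G : Type*} [Group G] {D : Set G}

theorem exists_product_partner [Finite G] (hD : Cfsg.IsRootInvolutionSet D)
    (hc : Cfsg.IsConnectedSet (Cfsg.OddAdj D) D) (hDD : (D ∩ Cfsg.commutingProducts D).Nonempty) {a : G}
    (ha : a ∈ D) : ∃ b ∈ D, b ≠ a ∧ a * b = b * a ∧ a * b ∈ D := by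
  obtain ⟨z, hz, p, hp, q, hq, hpq, hne, rfl⟩ := hDD
  obtain ⟨g, rfl⟩ := conj_of_reach hD (hc p hp a ha)
  refine ⟨g * q * g⁻¹, hD.conj_mem q hq g, fun e => hne ?_, ?_, ?_⟩
  · rw [mul_left_cancel (mul_right_cancel e), mul_self hD hp]
  · calc g * p * g⁻¹ * (g * q * g⁻¹) = g * (p * q) * g⁻¹ := by group
      _ = g * (q * p) * g⁻¹ := by rw [hpq]
      _ = _ := by group
  · rw [show g * p * g⁻¹ * (g * q * g⁻¹) = g * (p * q) * g⁻¹ by group]
    exact hD.conj_mem _ hz g

theorem eq_top_of_mem [Finite G] (hD : Cfsg.IsRootInvolutionSet D)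
    (hc : Cfsg.IsConnectedSet (Cfsg.OddAdj D) D) {N : Subgroup G} [hN : N.Normal] {d : G} (hd : d ∈ D)
    (hdN : d ∈ N) : N = ⊤ := by
  rw [eq_top_iff, ← hD.generates, Subgroup.closure_le]
  intro e he
  obtain ⟨g, rfl⟩ := conj_of_reach hD (hc d hd e he)
  exact hN.conj_mem d hdN g

/-- A normal subgroup containing the product of an odd pair is everything. -/
theorem eq_top_of_odd [Finite G] (hD : Cfsg.IsRootInvolutionSet D)
    (hc : Cfsg.IsConnectedSet (Cfsg.OddAdj D) D) (hDD : (D ∩ Cfsg.commutingProducts D).Nonempty)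
    {N : Subgroup G} [hN : N.Normal] {a x : G} (h : Cfsg.OddAdj D a x) (hax : a * x ∈ N) : N = ⊤ := by
  obtain ⟨ha, hx, -, -⟩ := id h
  obtain ⟨b, hb, -, hab, habD⟩ := exists_product_partner hD hc hDD ha
  have e0 : (a : G ⧸ N) = x := by
    have := (QuotientGroup.eq_one_iff (N := N) (a * x)).2 hax
    rw [QuotientGroup.mk_mul, mul_eq_one_iff_eq_inv, ← QuotientGroup.mk_inv, inv_eq hD hx] at this
    exact this
  by_cases hbx : Cfsg.OddAdj D b x
  · -- then `b ≡ a` or we find a member in `N`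
    have hn := hN.conj_mem (a * x) hax a
    rw [inv_eq hD ha, show a * (a * x) * a = (a * a) * (x * a) by simp only [mul_assoc], mul_self hD ha, one_mul] at hn
    have hkey : ∀ g : G, Odd (orderOf (g : G ⧸ N)) → g * g ∈ N → g ∈ N := fun g ho hg => by
      refine (QuotientGroup.eq_one_iff g).1 (eq_one_of_sq_of_odd ?_ ho (pow_orderOf_eq_one _))
      rw [← QuotientGroup.mk_mul]
      exact (QuotientGroup.eq_one_iff (g * g)).2 hg
    have hbxN : b * x ∈ N := by
      refine hkey _ (hbx.2.2.2.of_dvd_nat (orderOf_map_dvd (QuotientGroup.mk' N) (b * x))) ?_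
      rw [← QuotientGroup.eq_one_iff]
      rw [QuotientGroup.mk_mul, QuotientGroup.mk_mul, ← e0, ← QuotientGroup.mk_mul, ← QuotientGroup.mk_mul]
      nth_rewrite 2 [← hab]
      rw [show b * a * (a * b) = b * (a * a) * b by simp only [mul_assoc], mul_self hD ha, mul_one,
        mul_self hD hb, QuotientGroup.mk_one]
    refine eq_top_of_mem hD hc habD ?_
    rw [hab, show b * a = b * x * (x * a) by rw [← mul_assoc, mul_assoc b x x, mul_self hD hx, mul_one]]
    exact mul_mem hbxN hn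
  · have hne : b * x ≠ x * b := fun e => no_odd hD h hb hab habD e
    obtain ⟨h4, hsq⟩ := four_of hD hb hx hbx hne
    refine eq_top_of_mem hD hc hsq ?_
    rw [← QuotientGroup.eq_one_iff, pow_two]
    rw [QuotientGroup.mk_mul, QuotientGroup.mk_mul, ← e0, ← QuotientGroup.mk_mul, ← QuotientGroup.mk_mul]
    nth_rewrite 1 [← hab]
    rw [show a * b * (b * a) = a * (b * b) * a by simp only [mul_assoc], mul_self hD hb, mul_one,
      mul_self hD ha, QuotientGroup.mk_one]

/-- Normal subgroups are everything or lie in `O_{2,Z}(G)`. -/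
theorem eq_top_or_le_twoZCore [Finite G] (hD : Cfsg.IsRootInvolutionSet D)
    (hc : Cfsg.IsConnectedSet (Cfsg.OddAdj D) D) (hDD : (D ∩ Cfsg.commutingProducts D).Nonempty)
    (N : Subgroup G) [hN : N.Normal] : N = ⊤ ∨ N ≤ Cfsg.twoZCore G := by
  haveI : Fact (Nat.Prime 2) := ⟨Nat.prime_two⟩
  by_cases htop : N = ⊤
  · exact Or.inl htop
  refine Or.inr fun n hn => ?_
  have hcomm : ∀ d ∈ D, ∀ m ∈ N, Commute d (m * d * m⁻¹) := by
    intro d hd m hm
    have hdm := hD.conj_mem d hd m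
    have hin : d * (m * d * m⁻¹) ∈ N := by
      rw [show d * (m * d * m⁻¹) = (d * m * d⁻¹) * ((d * d) * m⁻¹) by group, mul_self hD hd, one_mul]
      exact mul_mem (hN.conj_mem m hm d) (inv_mem hm)
    by_contra hne
    by_cases hodd : Cfsg.OddAdj D d (m * d * m⁻¹)
    · exact htop (eq_top_of_odd hD hc hDD hodd hin)
    · exact htop (eq_top_of_mem hD hc (four_of hD hd hdm hodd hne).2 (pow_mem hin 2))
  have hQ : ∀ d ∈ D, d * (n * d * n⁻¹) ∈ Cfsg.pCore 2 G := by
    intro d hd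
    set S := {z | ∃ m ∈ N, z = m * d * m⁻¹} with hS
    set E := Subgroup.closure S with hE
    have hpair : ∀ p ∈ S, ∀ q ∈ S, p * q = q * p := by
      rintro _ ⟨m₁, h1, rfl⟩ _ ⟨m₂, h2, rfl⟩
      have := hcomm d hd (m₁⁻¹ * m₂) (mul_mem (inv_mem h1) h2)
      calc m₁ * d * m₁⁻¹ * (m₂ * d * m₂⁻¹)
          = m₁ * (d * ((m₁⁻¹ * m₂) * d * (m₁⁻¹ * m₂)⁻¹)) * m₁⁻¹ := by group
        _ = m₁ * (((m₁⁻¹ * m₂) * d * (m₁⁻¹ * m₂)⁻¹) * d) * m₁⁻¹ := by rw [this.eq]
        _ = _ := by group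
    haveI hcE : IsMulCommutative E := Subgroup.isMulCommutative_closure hpair
    have hp2 : IsPGroup 2 E := by
      intro z
      refine ⟨1, ?_⟩
      obtain ⟨z, hz⟩ := z
      apply Subtype.ext
      show z ^ 2 ^ 1 = 1
      rw [pow_one]
      induction hz using Subgroup.closure_induction with
      | mem y hy =>
        obtain ⟨m, -, rfl⟩ := hy
        rw [pow_two]; exact mul_self hD (hD.conj_mem d hd m)
      | one => simp
      | mul p q hp hq ihp ihq =>
        have : Commute p q := congrArg Subtype.val (mul_comm' (⟨p, hp⟩ : E) ⟨q, hq⟩)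
        rw [this.mul_pow, ihp, ihq, one_mul]
      | inv p _ ihp => rw [inv_pow, ihp, inv_one]
    have hnorm : ∀ m ∈ N, ∀ z ∈ E, m * z * m⁻¹ ∈ E := by
      intro m hm z hz
      induction hz using Subgroup.closure_induction with
      | mem y hy =>
        obtain ⟨m', hm', rfl⟩ := hy
        exact Subgroup.subset_closure ⟨m * m', mul_mem hm hm', by group⟩
      | one => simp
      | mul p q _ _ ihp ihq => rw [show m * (p * q) * m⁻¹ = m * p * m⁻¹ * (m * q * m⁻¹) by group]; exact mul_mem ihp ihq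
      | inv p _ ihp => rw [show m * p⁻¹ * m⁻¹ = (m * p * m⁻¹)⁻¹ by group]; exact inv_mem ihp
    have hsub : (E ⊓ N).IsSubnormal := by
      refine Subgroup.IsSubnormal.step _ _ inf_le_right hN.isSubnormal ?_
      exact (Subgroup.normal_subgroupOf_iff inf_le_right).2 fun z g hz hg =>
        Subgroup.mem_inf.2 ⟨hnorm g hg z hz.1, N.mul_mem (N.mul_mem hg hz.2) (N.inv_mem hg)⟩
    refine CfsgLib.Subnormal.le_pCore_of_isSubnormal hsub (hp2.to_le inf_le_left) ⟨mul_mem ?_ ?_, ?_⟩
    · exact Subgroup.subset_closure ⟨1, one_mem _, by group⟩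
    · exact Subgroup.subset_closure ⟨n, hn, rfl⟩
    · rw [show d * (n * d * n⁻¹) = (d * n * d⁻¹) * ((d * d) * n⁻¹) by group, mul_self hD hd, one_mul]
      exact N.mul_mem (hN.conj_mem n hn d) (N.inv_mem hn)
  show (n : G ⧸ Cfsg.pCore 2 G) ∈ Subgroup.center _
  haveI : (Cfsg.pCore 2 G).Normal := CfsgLib.Subnormal.normal_pCore 2
  refine Subgroup.mem_center_iff.2 fun q => ?_
  obtain ⟨g, rfl⟩ := QuotientGroup.mk_surjective q
  have hg : g ∈ Subgroup.closure D := hD.generates ▸ Subgroup.mem_top g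
  induction hg using Subgroup.closure_induction with
  | mem d hd =>
    have h1 := (QuotientGroup.eq_one_iff (N := Cfsg.pCore 2 G) _).2 (hQ d hd)
    simp only [QuotientGroup.mk_mul, QuotientGroup.mk_inv] at h1
    calc (d : G ⧸ Cfsg.pCore 2 G) * n = (n * d * (n : G ⧸ Cfsg.pCore 2 G)⁻¹) * n := by
          rw [eq_inv_of_mul_eq_one_right h1, ← QuotientGroup.mk_inv, inv_eq hD hd]
      _ = n * d := inv_mul_cancel_right _ _
  | one => simp
  | mul p q _ _ ihp ihq =>
    rw [QuotientGroup.mk_mul]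
    exact (Commute.mul_left (show Commute (p : G ⧸ Cfsg.pCore 2 G) n from ihp) ihq).eq
  | inv p _ ihp =>
    rw [QuotientGroup.mk_inv]
    exact (show Commute (p : G ⧸ Cfsg.pCore 2 G) n from ihp).inv_left.eq

theorem commutator_eq_top [Finite G] (hD : Cfsg.IsRootInvolutionSet D)
    (hc : Cfsg.IsConnectedSet (Cfsg.OddAdj D) D) (hDD : (D ∩ Cfsg.commutingProducts D).Nonempty) :
    commutator G = ⊤ ∧ ∃ a x, Cfsg.OddAdj D a x := by
  obtain ⟨z, hz, p, hp, q, hq, hpq, hne, rfl⟩ := id hDD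
  have hpne : p ≠ q := fun e => hne (by rw [e, mul_self hD hq])
  obtain ⟨x, hx⟩ : ∃ x, Cfsg.OddAdj D p x := by
    rcases (hc p hp q hq).cases_head with h | ⟨x, hx, -⟩
    · exact absurd h hpne
    · exact ⟨x, hx⟩
  obtain ⟨g, hg⟩ := conj_of_reach hD (hc p hp x hx.2.1)
  refine ⟨eq_top_of_odd hD hc hDD hx ?_, p, x, hx⟩
  rw [← hg, show p * (g * p * g⁻¹) = p * g * p⁻¹ * g⁻¹ * (g * (p * p) * g⁻¹) by group, mul_self hD hp,
    mul_one, mul_inv_cancel, mul_one]
  exact Subgroup.commutator_mem_commutator (Subgroup.mem_top p) (Subgroup.mem_top g)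

end CfsgLib.RootInvol
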